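import Mathlib
import Cfsg.Prelude.Def_ClassicalGeometry
import Cfsg.Agent.H177.InvolForms
import Cfsg.Agent.S0287
import Cfsg.Agent.ClassicalGeometry.OrthDickson
import Cfsg.Agent.LieClassical.QuadCount
import Cfsg.Agent.H177.OmegaSign
import Cfsg.Agent.H181.Families
import Cfsg.Agent.H196.SymForm2
set_option linter.all false

-- part: H196/Fixing
section
/-!
# Pointwise stabilisers of subspaces in `isometryGroup F Q`

* `card_eq_of_fibres`: counting a group by the fibres of a map;
* `fixing Q M`: the isometries fixing every vector of `M`;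
* `card_fixing_step`: orbit counting by Witt's lemma;
* `card_fixing_singular`: the order of `fixing` of a totally singular subspace of the plus-type form;
* `card_fixing_nonsingular`: the same for a totally isotropic, not totally singular subspace in
  characteristic two.
-/

set_option autoImplicit false
set_option linter.unusedSectionVars false

namespace Cfsg.Agent.H196

open QuadraticMap Matrix Module
open Cfsg.Agent.ClassicalGeometry.Reflection
open Cfsg.Agent.ClassicalGeometry.OrthCharTwo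
open Cfsg.Agent.H177.InvolGroup
open Cfsg.Agent.LieClassical.OrthForms

/-- Counting a group by the fibres of a map. -/
theorem card_eq_of_fibres {G X : Type*} [Group G] (K : Subgroup G) (f : G → X)
    (hf : Function.Surjective f) (h : ∀ a b, f a = f b ↔ a⁻¹ * b ∈ K) :
    Nat.card G = Nat.card X * Nat.card K := by
  rw [Subgroup.card_eq_card_quotient_mul_card_subgroup K]
  congr 1
  refine Nat.card_eq_of_bijective (Quotient.lift f fun a b hab => (h a b).2
    (QuotientGroup.leftRel_apply.1 hab)) ⟨?_, ?_⟩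
  · intro a b
    refine Quotient.inductionOn₂ a b fun a b hab => ?_
    exact Quotient.sound (QuotientGroup.leftRel_apply.2 ((h a b).1 hab))
  · intro x
    obtain ⟨a, rfl⟩ := hf x
    exact ⟨Quotient.mk _ a, rfl⟩

variable {ι : Type} [Fintype ι] [DecidableEq ι] {F : Type*} [Field F]

/-- The isometries fixing every vector of `M`. -/
def fixing (Q : (ι → F) → F) (M : Submodule F (ι → F)) : Subgroup (Cfsg.isometryGroup F Q) where
  carrier := {g | ∀ x ∈ M, act g x = x}
  mul_mem' {a b} ha hb := fun x hx => by rw [act_mul, hb x hx, ha x hx]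
  one_mem' := fun x _ => act_one x
  inv_mem' {a} ha := fun x hx => by
    conv_lhs => rw [← ha x hx]
    exact act_inv_act a x

theorem mem_fixing {Q : (ι → F) → F} {M : Submodule F (ι → F)} {g : Cfsg.isometryGroup F Q} :
    g ∈ fixing Q M ↔ ∀ x ∈ M, act g x = x := Iff.rfl

theorem fixing_bot (Q : (ι → F) → F) : fixing Q (⊥ : Submodule F (ι → F)) = ⊤ := by
  rw [eq_top_iff]
  intro g _ x hx
  rw [(Submodule.mem_bot F).1 hx, act_zero]

/-- Orbit counting. -/
theorem card_fixing_step (Q : QuadraticForm F (ι → F)) (hQ : (polarBilin Q).Nondegenerate)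
    (M : Submodule F (ι → F)) (u : ι → F) (hu : u ∉ M) :
    Nat.card (fixing (⇑Q) M)
      = Nat.card {w : ι → F // w ∉ M ∧ Q w = Q u ∧ ∀ x ∈ M, polar Q x w = polar Q x u}
        * Nat.card (fixing (⇑Q) (M ⊔ Submodule.span F {u})) := by
  have hle : fixing (⇑Q) (M ⊔ Submodule.span F {u}) ≤ fixing (⇑Q) M :=
    fun g hg x hx => hg x (Submodule.mem_sup_left hx)
  have h1 : Nat.card (fixing (⇑Q) (M ⊔ Submodule.span F {u}))
      = Nat.card ((fixing (⇑Q) (M ⊔ Submodule.span F {u})).subgroupOf (fixing (⇑Q) M)) :=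
    (Nat.card_congr (Subgroup.subgroupOfEquivOfLe hle).toEquiv).symm
  rw [h1]
  have hout : ∀ g : fixing (⇑Q) M, act (g : Cfsg.isometryGroup F (⇑Q)) u ∉ M := by
    intro g hg
    apply hu
    have h2 := g.2 _ hg
    have h3 := congrArg (act (g : Cfsg.isometryGroup F (⇑Q))⁻¹) h2
    rw [act_inv_act, act_inv_act] at h3
    rwa [h3] at hg
  refine card_eq_of_fibres _ (fun g => ⟨act (g : Cfsg.isometryGroup F (⇑Q)) u, hout g,
    Q_act (Q := ⇑Q) _ _, fun x hx => by
      conv_lhs => rw [← g.2 x hx]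
      exact polar_act (Q := ⇑Q) _ _ _⟩) ?_ ?_
  · rintro ⟨w, hw, hw1, hw2⟩
    obtain ⟨e, he, heM, heu⟩ := Cfsg.Agent.ClassicalGeometry.WittQuad.step Q hQ M u w hu hw hw1.symm
      (fun h hh => by
        have := hw2 h hh
        rw [polar_comm, polar_comm (⇑Q) h u] at this
        exact this.symm)
    obtain ⟨g, hg⟩ := exists_iso (⇑Q) e he
    refine ⟨⟨g, fun x hx => by rw [hg, heM x hx]⟩, ?_⟩
    apply Subtype.ext
    exact (hg u).trans heu
  · intro a b
    rw [Subtype.mk.injEq, Subgroup.mem_subgroupOf, mem_fixing]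
    constructor
    · intro hab x hx
      obtain ⟨y, hy, z, hz, rfl⟩ := Submodule.mem_sup.1 hx
      obtain ⟨c, rfl⟩ := Submodule.mem_span_singleton.1 hz
      rw [act_add, act_smul]
      have h4 : act ((a⁻¹ * b : fixing (⇑Q) M) : Cfsg.isometryGroup F (⇑Q)) u = u := by
        rw [Subgroup.coe_mul, act_mul, ← hab, ← act_mul, ← Subgroup.coe_mul, inv_mul_cancel]
        exact act_one u
      rw [h4, (a⁻¹ * b).2 y hy]
    · intro h
      have h4 := h u (Submodule.mem_sup_right (Submodule.mem_span_singleton_self u))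
      have h5 := congrArg (act (a : Cfsg.isometryGroup F (⇑Q))) h4
      rw [← act_mul, ← Subgroup.coe_mul, mul_inv_cancel_left] at h5
      exact h5.symm

/-- conjugate subspaces have pointwise stabilisers of the same order -/
theorem card_fixing_map (Q : (ι → F) → F) (g : Cfsg.isometryGroup F Q)
    (M : Submodule F (ι → F)) :
    Nat.card (fixing Q (M.map (actEquiv g : (ι → F) →ₗ[F] (ι → F)))) = Nat.card (fixing Q M) := by
  refine Nat.card_congr
    { toFun := fun h => ⟨g⁻¹ * h * g, fun x hx => ?_⟩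
      invFun := fun h => ⟨g * h * g⁻¹, fun x hx => ?_⟩
      left_inv := fun h => Subtype.ext (by simp [mul_assoc])
      right_inv := fun h => Subtype.ext (by simp [mul_assoc]) }
  · have h1 : act (h : Cfsg.isometryGroup F Q) (act g x) = act g x :=
      h.2 _ (Submodule.mem_map_of_mem hx)
    rw [act_mul, act_mul, h1]
    exact act_inv_act g x
  · obtain ⟨y, hy, rfl⟩ := hx
    rw [LinearEquiv.coe_coe, actEquiv_apply, act_mul, act_mul, act_inv_act, h.2 y hy]

end Cfsg.Agent.H196
end

-- part: H196/InvolCent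
section
/-!
# Centralisers of involutions of `isometryGroup F Q` in characteristic two

`card_centralizer`: the centraliser of `1 + N` is (isometries of the form `γ` on the range of `N`)
times the pointwise stabiliser of the range of `N`.
-/

set_option autoImplicit false
set_option linter.unusedSectionVars false

namespace Cfsg.Agent.H196

open QuadraticMap Matrix Module
open Cfsg.Agent.ClassicalGeometry.Reflection
open Cfsg.Agent.ClassicalGeometry.OrthCharTwo
open Cfsg.Agent.H177.InvolGroup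

variable {ι : Type} [Fintype ι] [DecidableEq ι] {F : Type*} [Field F]
variable (Q : QuadraticForm F (ι → F))

theorem commute_iff (g h : Cfsg.isometryGroup F (⇑Q)) :
    h * g = g * h ↔ ∀ x, act h (nMap g x) = nMap g (act h x) := by
  constructor
  · intro hc x
    rw [nMap_apply, nMap_apply, act_sub, ← act_mul, ← act_mul, hc]
  · intro H
    apply act_ext
    intro x
    have h1 := H x
    rw [nMap_apply, nMap_apply, act_sub, sub_left_inj, ← act_mul, ← act_mul] at h1
    exact h1

theorem map_range_of_commute (g h : Cfsg.isometryGroup F (⇑Q)) (hc : h * g = g * h) :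
    (LinearMap.range (nMap g)).map (actEquiv h : (ι → F) →ₗ[F] (ι → F))
      = LinearMap.range (nMap g) := by
  have h1 := (commute_iff Q g h).1 hc
  ext y
  rw [Submodule.mem_map]
  constructor
  · rintro ⟨_, ⟨x, rfl⟩, rfl⟩
    rw [LinearEquiv.coe_coe, actEquiv_apply, h1]
    exact ⟨_, rfl⟩
  · rintro ⟨x, rfl⟩
    refine ⟨nMap g (act h⁻¹ x), ⟨_, rfl⟩, ?_⟩
    rw [LinearEquiv.coe_coe, actEquiv_apply, h1, act_act_inv]

/-- the restriction to the range of `g - 1` of an isometry that commutes with `g` -/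
noncomputable def restr (g : Cfsg.isometryGroup F (⇑Q))
    (h : Subgroup.centralizer ({g} : Set (Cfsg.isometryGroup F (⇑Q)))) :
    LinearMap.range (nMap g) ≃ₗ[F] LinearMap.range (nMap g) :=
  (actEquiv (h : Cfsg.isometryGroup F (⇑Q))).ofSubmodules _ _
    (map_range_of_commute Q g h (Subgroup.mem_centralizer_singleton_iff.1 h.2))

theorem restr_apply (g : Cfsg.isometryGroup F (⇑Q))
    (h : Subgroup.centralizer ({g} : Set (Cfsg.isometryGroup F (⇑Q))))
    (x : LinearMap.range (nMap g)) :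
    (restr Q g h x : ι → F) = act (h : Cfsg.isometryGroup F (⇑Q)) x := by
  rw [restr, LinearEquiv.ofSubmodules_apply, actEquiv_apply]

theorem fixing_le_centralizer [CharP F 2] (hQ : (polarBilin Q).Nondegenerate)
    (g : Cfsg.isometryGroup F (⇑Q)) (hg : g * g = 1) :
    fixing (⇑Q) (LinearMap.range (nMap g)) ≤ Subgroup.centralizer {g} := by
  intro h hh
  rw [Subgroup.mem_centralizer_singleton_iff, commute_iff]
  intro x
  rw [hh _ ⟨x, rfl⟩]
  apply eq_of_polar Q hQ
  intro y
  have h1 : ∀ a b, polar Q (nMap g a) b = - polar Q a (nMap g b) :=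
    Cfsg.Agent.H177.InvolOrth.polar_N Q (nMap g) (nMap_nMap Q g hg) (Q_add_nMap Q g)
  rw [h1, h1]
  conv_lhs => rw [← polar_act h x (nMap g y), hh (nMap g y) ⟨y, rfl⟩]

/-- **The centraliser of an involution.** -/
theorem card_centralizer [Finite F] [CharP F 2] (hQ : (polarBilin Q).Nondegenerate)
    (g : Cfsg.isometryGroup F (⇑Q)) (hg : g * g = 1)
    (γ : LinearMap.BilinForm F (LinearMap.range (nMap g))) (hγ : γ.Nondegenerate)
    (h1 : ∀ (x : ι → F) (m : LinearMap.range (nMap g)),
        γ ⟨nMap g x, LinearMap.mem_range_self (nMap g) x⟩ m = QuadraticMap.polarBilin Q x m)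
    (h2 : ∀ m, γ m m = Q m) :
    Nat.card (Subgroup.centralizer ({g} : Set (Cfsg.isometryGroup F (⇑Q))))
      = Nat.card {φ : LinearMap.range (nMap g) ≃ₗ[F] LinearMap.range (nMap g) //
          ∀ x y, γ (φ x) (φ y) = γ x y}
        * Nat.card (fixing (⇑Q) (LinearMap.range (nMap g))) := by
  have hle := fixing_le_centralizer Q hQ g hg
  rw [← Nat.card_congr (Subgroup.subgroupOfEquivOfLe hle).toEquiv]
  refine card_eq_of_fibres _ (fun h => ⟨restr Q g h, ?_⟩) ?_ ?_
  · rintro ⟨_, x, rfl⟩ m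
    have h3 : restr Q g h ⟨nMap g x, ⟨x, rfl⟩⟩
        = ⟨nMap g (act (h : Cfsg.isometryGroup F (⇑Q)) x), ⟨_, rfl⟩⟩ := by
      apply Subtype.ext
      rw [restr_apply]
      exact (commute_iff Q g h).1 (Subgroup.mem_centralizer_singleton_iff.1 h.2) x
    rw [h3, h1, h1, restr_apply]
    exact polar_act _ _ _
  · rintro ⟨φ, hφ⟩
    obtain ⟨e, he, heφ⟩ := Cfsg.Agent.ClassicalGeometry.WittQuad.extend Q hQ _ _ φ (fun m => by
      rw [← h2, hφ, h2])
    obtain ⟨h, hh⟩ := exists_iso (⇑Q) e he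
    have hc : h ∈ Subgroup.centralizer ({g} : Set (Cfsg.isometryGroup F (⇑Q))) := by
      rw [Subgroup.mem_centralizer_singleton_iff, commute_iff]
      intro x
      have hpol := Cfsg.Agent.ClassicalGeometry.WittQuad.polar_map Q e (map_add e) he
      have key : φ ⟨nMap g x, LinearMap.mem_range_self _ x⟩
          = ⟨nMap g (e x), LinearMap.mem_range_self _ (e x)⟩ := by
        rw [← sub_eq_zero]
        apply hγ.1
        intro m'
        obtain ⟨m, rfl⟩ := φ.surjective m'
        rw [map_sub, LinearMap.sub_apply, hφ, h1, h1, ← heφ, hpol, sub_self]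
      rw [hh, heφ ⟨nMap g x, LinearMap.mem_range_self _ x⟩, key, hh]
    refine ⟨⟨h, hc⟩, ?_⟩
    apply Subtype.ext
    apply LinearEquiv.ext
    intro x
    apply Subtype.ext
    rw [restr_apply]
    exact (hh x).trans (heφ x)
  · intro a b
    rw [Subtype.mk.injEq, Subgroup.mem_subgroupOf, mem_fixing]
    constructor
    · intro hab x hx
      have h3 := congrArg (fun φ => ((φ ⟨x, hx⟩ : LinearMap.range (nMap g)) : ι → F)) hab
      simp only [restr_apply] at h3
      rw [Subgroup.coe_mul, act_mul, ← h3, Subgroup.coe_inv, act_inv_act]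
    · intro hab
      apply LinearEquiv.ext
      intro x
      apply Subtype.ext
      rw [restr_apply, restr_apply]
      have h3 := congrArg (act (a : Cfsg.isometryGroup F (⇑Q))) (hab x x.2)
      rw [← act_mul, ← Subgroup.coe_mul, mul_inv_cancel_left] at h3
      exact h3.symm

end Cfsg.Agent.H196
end

-- part: H196/PlusStd
section
/-!
# Standard totally singular subspaces of the plus-type form and counts
-/

set_option autoImplicit false
set_option linter.unusedSectionVars false

namespace Cfsg.Agent.H196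

open QuadraticMap Matrix Module
open Cfsg.Agent.ClassicalGeometry.Reflection
open Cfsg.Agent.ClassicalGeometry.OrthCharTwo
open Cfsg.Agent.H177.InvolGroup
open Cfsg.Agent.H177.InvolForms
open Cfsg.Agent.LieClassical.OrthForms

variable {F : Type*} [Field F]

/-- The span of the first `k` vectors `x_i`. -/
def stdS (m k : ℕ) (F : Type*) [Field F] : Submodule F (Fin m ⊕ Fin m → F) where
  carrier := {v | (∀ i, v (Sum.inr i) = 0) ∧ ∀ i : Fin m, k ≤ i.1 → v (Sum.inl i) = 0}
  add_mem' {a b} ha hb := ⟨fun i => by rw [Pi.add_apply, ha.1, hb.1, add_zero],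
    fun i hi => by rw [Pi.add_apply, ha.2 i hi, hb.2 i hi, add_zero]⟩
  zero_mem' := ⟨fun _ => rfl, fun _ _ => rfl⟩
  smul_mem' c a ha := ⟨fun i => by rw [Pi.smul_apply, ha.1, smul_zero],
    fun i hi => by rw [Pi.smul_apply, ha.2 i hi, smul_zero]⟩

theorem mem_stdS {m k : ℕ} {v : Fin m ⊕ Fin m → F} :
    v ∈ stdS m k F ↔ (∀ i, v (Sum.inr i) = 0) ∧ ∀ i : Fin m, k ≤ i.1 → v (Sum.inl i) = 0 := Iff.rfl

theorem stdS_zero (m : ℕ) : stdS m 0 F = ⊥ := by
  rw [eq_bot_iff]
  intro v hv
  rw [Submodule.mem_bot]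
  funext i
  rcases i with i | i
  · exact hv.2 i (Nat.zero_le _)
  · exact hv.1 i

theorem stdS_singular {m k : ℕ} {v : Fin m ⊕ Fin m → F} (hv : v ∈ stdS m k F) :
    plusForm m F v = 0 := by
  rw [coe_plusForm, quadFormPlus_apply]
  exact Finset.sum_eq_zero fun i _ => by rw [hv.1, mul_zero]

theorem stdS_succ {m k : ℕ} (hk : k < m) :
    stdS m (k + 1) F = stdS m k F ⊔ Submodule.span F {px m F ⟨k, hk⟩} := by
  apply le_antisymm
  · intro v hv
    rw [Submodule.mem_sup]
    refine ⟨v - v (Sum.inl ⟨k, hk⟩) • px m F ⟨k, hk⟩, ⟨?_, ?_⟩, v (Sum.inl ⟨k, hk⟩) • px m F ⟨k, hk⟩,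
      Submodule.smul_mem _ _ (Submodule.mem_span_singleton_self _), by abel⟩
    · intro i
      simp [px, hv.1 i]
    · intro i hi
      by_cases h : i = ⟨k, hk⟩
      · subst h
        simp [px]
      · have h1 : k + 1 ≤ i.1 := by
          rcases Nat.lt_or_ge k i.1 with h2 | h2
          · exact h2
          · exact absurd (Fin.ext (le_antisymm h2 hi)) h
        simp [px, hv.2 i h1, Pi.single_apply, h]
  · rw [sup_le_iff]
    constructor
    · intro v hv
      exact ⟨hv.1, fun i hi => hv.2 i (by omega)⟩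
    · rw [Submodule.span_singleton_le_iff_mem]
      refine ⟨fun i => by simp [px], fun i hi => ?_⟩
      have h : i ≠ ⟨k, hk⟩ := by
        rintro rfl
        simp at hi
      simp [px, Pi.single_apply, h]

theorem px_notMem {m k : ℕ} (hk : k < m) : px m F ⟨k, hk⟩ ∉ stdS m k F := by
  intro h
  have := h.2 ⟨k, hk⟩ le_rfl
  simp [px] at this

theorem finrank_stdS {m k : ℕ} (hk : k ≤ m) : finrank F (stdS m k F) = k := by
  induction k with
  | zero => rw [stdS_zero, finrank_bot]
  | succ k ih =>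
    have h1 := ih (by omega)
    have h2 : stdS m k F ⊓ Submodule.span F {px m F ⟨k, hk⟩} = ⊥ := by
      rw [eq_bot_iff]
      rintro v ⟨hv1, hv2⟩
      obtain ⟨c, rfl⟩ := Submodule.mem_span_singleton.1 hv2
      have h3 := hv1.2 ⟨k, hk⟩ le_rfl
      have h4 : c = 0 := by simpa [px] using h3
      rw [h4, zero_smul]
      exact Submodule.zero_mem _
    have h3 := Submodule.finrank_sup_add_finrank_inf_eq (stdS m k F)
      (Submodule.span F {px m F ⟨k, hk⟩})
    have h4 : px m F ⟨k, hk⟩ ≠ 0 := by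
      intro h
      exact px_notMem hk (by rw [h]; exact Submodule.zero_mem _)
    rw [h2, finrank_bot, finrank_span_singleton h4, ← stdS_succ hk, h1] at h3
    omega

theorem polar_stdS_iff {m k : ℕ} (w : Fin m ⊕ Fin m → F) :
    (∀ x ∈ stdS m k F, polar (plusForm m F) x w = 0) ↔
      ∀ i : Fin m, i.1 < k → w (Sum.inr i) = 0 := by
  constructor
  · intro h i hi
    have h1 := h (px m F i) ⟨fun j => by simp [px], fun j hj => by
      have : j ≠ i := by rintro rfl; omega
      simp [px, Pi.single_apply, this]⟩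
    rw [polar_plusForm] at h1
    simpa [px, Pi.single_apply] using h1
  · intro h x hx
    rw [polar_plusForm]
    apply Finset.sum_eq_zero
    intro i _
    rw [hx.1 i, mul_zero, add_zero]
    by_cases hi : i.1 < k
    · rw [h i hi, mul_zero]
    · rw [hx.2 i (by omega), zero_mul]

/-- Vectors orthogonal to `stdS (k + n) k`. -/
def glue {k n : ℕ} (a : Fin k → F) (u : Fin n ⊕ Fin n → F) : Fin (k + n) ⊕ Fin (k + n) → F :=
  Sum.elim (Fin.append a fun i => u (Sum.inl i)) (Fin.append 0 fun i => u (Sum.inr i))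

theorem glue_form {k n : ℕ} (a : Fin k → F) (u : Fin n ⊕ Fin n → F) :
    plusForm (k + n) F (glue a u) = Cfsg.quadFormPlus n F u := by
  rw [coe_plusForm, quadFormPlus_apply, quadFormPlus_apply, Fin.sum_univ_add]
  simp [glue]

theorem glue_mem {k n : ℕ} (a : Fin k → F) (u : Fin n ⊕ Fin n → F) :
    glue a u ∈ stdS (k + n) k F ↔ u = 0 := by
  rw [mem_stdS]
  constructor
  · rintro ⟨h1, h2⟩
    funext i
    rcases i with i | i
    · have := h2 (Fin.natAdd k i) (by simp)
      simpa [glue] using this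
    · have := h1 (Fin.natAdd k i)
      simpa [glue] using this
  · rintro rfl
    refine ⟨fun i => ?_, fun i hi => ?_⟩
    · refine Fin.addCases (fun i => ?_) (fun i => ?_) i <;> simp [glue]
    · revert hi
      refine Fin.addCases (fun i hi => ?_) (fun i hi => ?_) i
      · exfalso
        simp only [Fin.val_castAdd] at hi
        omega
      · simp [glue]

/-- **The number of extensions.** -/
theorem card_ext [Finite F] (k n : ℕ) (c : F) :
    Nat.card {w : Fin (k + n) ⊕ Fin (k + n) → F // w ∉ stdS (k + n) k F ∧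
        plusForm (k + n) F w = c ∧ ∀ x ∈ stdS (k + n) k F, polar (plusForm (k + n) F) x w = 0}
      = Nat.card F ^ k * Nat.card {u : Fin n ⊕ Fin n → F // u ≠ 0 ∧ Cfsg.quadFormPlus n F u = c} := by
  have h1 : Nat.card F ^ k = Nat.card (Fin k → F) := by
    rw [Nat.card_fun, Nat.card_fin]
  rw [h1, ← Nat.card_prod]
  symm
  refine Nat.card_eq_of_bijective (fun p => ⟨glue p.1 p.2.1, by
    rw [glue_mem]; exact p.2.2.1, by rw [glue_form]; exact p.2.2.2, by
    rw [polar_stdS_iff]
    intro i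
    refine Fin.addCases (fun i hi => ?_) (fun i hi => ?_) i
    · simp [glue]
    · simp only [Fin.val_natAdd] at hi
      omega⟩) ⟨?_, ?_⟩
  · rintro ⟨a, u, hu⟩ ⟨b, v, hv⟩ h
    have h2 := congrArg Subtype.val h
    have hab : a = b := by
      funext i
      have := congrFun h2 (Sum.inl (Fin.castAdd n i))
      simpa [glue] using this
    have huv : u = v := by
      funext i
      rcases i with i | i
      · have := congrFun h2 (Sum.inl (Fin.natAdd k i))
        simpa [glue] using this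
      · have := congrFun h2 (Sum.inr (Fin.natAdd k i))
        simpa [glue] using this
    subst hab huv
    rfl
  · rintro ⟨w, hw1, hw2, hw3⟩
    rw [polar_stdS_iff] at hw3
    set u : Fin n ⊕ Fin n → F := Sum.elim (fun i => w (Sum.inl (Fin.natAdd k i)))
      (fun i => w (Sum.inr (Fin.natAdd k i))) with hu
    set a : Fin k → F := fun i => w (Sum.inl (Fin.castAdd n i)) with ha
    have hg : glue a u = w := by
      funext i
      rcases i with i | i
      · refine Fin.addCases (fun i => ?_) (fun i => ?_) i <;> simp [glue, hu, ha]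
      · refine Fin.addCases (fun i => ?_) (fun i => ?_) i
        · simp only [glue, Sum.elim_inr, Fin.append_left, Pi.zero_apply]
          exact (hw3 (Fin.castAdd n i) i.2).symm
        · simp [glue, hu]
    refine ⟨⟨a, u, ?_, ?_⟩, Subtype.ext hg⟩
    · intro h0
      exact hw1 (by rw [← hg, glue_mem]; exact h0)
    · rw [← glue_form a u, hg]
      exact hw2

end Cfsg.Agent.H196
end

-- part: H196/PlusCount
section
/-!
# Orders of the pointwise stabilisers of totally isotropic subspaces of the plus-type form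
-/

set_option autoImplicit false
set_option linter.unusedSectionVars false

namespace Cfsg.Agent.H196

open QuadraticMap Matrix Module
open Cfsg.Agent.ClassicalGeometry.Reflection
open Cfsg.Agent.ClassicalGeometry.OrthCharTwo
open Cfsg.Agent.H177.InvolGroup
open Cfsg.Agent.H177.InvolForms
open Cfsg.Agent.LieClassical.OrthForms

variable {ι : Type} [Fintype ι] [DecidableEq ι] {F : Type*} [Field F]

theorem card_ne_zero_sing [Finite F] (n : ℕ) :
    Nat.card {u : Fin n ⊕ Fin n → F // u ≠ 0 ∧ Cfsg.quadFormPlus n F u = 0} + 1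
      = Nat.card {u : Fin n ⊕ Fin n → F // Cfsg.quadFormPlus n F u = 0} := by
  classical
  have h0 : Cfsg.quadFormPlus n F (0 : Fin n ⊕ Fin n → F) = 0 := by
    rw [quadFormPlus_apply]
    simp
  let e : Option {u : Fin n ⊕ Fin n → F // u ≠ 0 ∧ Cfsg.quadFormPlus n F u = 0} ≃
      {u : Fin n ⊕ Fin n → F // Cfsg.quadFormPlus n F u = 0} :=
    { toFun := fun o => o.elim ⟨0, h0⟩ fun u => ⟨u.1, u.2.2⟩
      invFun := fun u => if h : u.1 = 0 then none else some ⟨u.1, h, u.2⟩
      left_inv := fun o => by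
        rcases o with _ | ⟨u, hu, hu'⟩
        · simp
        · simp [hu]
      right_inv := fun u => by
        by_cases h : u.1 = 0
        · simp only [h, dite_true, Option.elim_none]
          exact Subtype.ext h.symm
        · simp [h] }
  rw [← Nat.card_congr e, Finite.card_option]

theorem range_succ (k : ℕ) : (k + 1) * (k + 1 - 1) / 2 = k * (k - 1) / 2 + k := by
  rw [← Nat.choose_two_right, ← Nat.choose_two_right, Nat.choose_succ_succ' k 1, Nat.choose_one_right,
    add_comm]

/-- **The pointwise stabiliser of the standard totally singular `k`-space.** -/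
theorem card_fixing_std [Fintype F] (k : ℕ) : ∀ m n : ℕ, m = k + n →
    Nat.card (fixing (⇑(plusForm m F)) (stdS m k F))
      = Nat.card F ^ (k * (k - 1) / 2 + 2 * k * n) *
        Nat.card (Cfsg.isometryGroup F (Cfsg.quadFormPlus n F)) := by
  induction k with
  | zero =>
    intro m n hmn
    obtain rfl : m = n := by omega
    rw [stdS_zero, fixing_bot, Nat.card_congr Subgroup.topEquiv.toEquiv, coe_plusForm]
    simp
  | succ k ih =>
    intro m n hmn
    have h1 := ih m (n + 1) (by omega)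
    have hk : k < m := by omega
    rw [card_fixing_step (plusForm m F) (plus_nondegenerate m F) (stdS m k F) (px m F ⟨k, hk⟩)
      (px_notMem hk), ← stdS_succ hk, Cfsg.Agent.S0287.step n] at h1
    have h2 : Nat.card {w : Fin m ⊕ Fin m → F // w ∉ stdS m k F ∧
        plusForm m F w = plusForm m F (px m F ⟨k, hk⟩) ∧ ∀ x ∈ stdS m k F,
          polar (plusForm m F) x w = polar (plusForm m F) x (px m F ⟨k, hk⟩)}
        = Nat.card F ^ k * Nat.card {u : Fin (n + 1) ⊕ Fin (n + 1) → F //
            u ≠ 0 ∧ Cfsg.quadFormPlus (n + 1) F u = 0} := by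
      have hm : m = k + (n + 1) := by omega
      subst hm
      rw [← card_ext]
      apply Nat.card_congr
      refine Equiv.subtypeEquivRight fun w => ?_
      rw [Q_px]
      have h3 : ∀ x ∈ stdS (k + (n + 1)) k F,
          polar (plusForm (k + (n + 1)) F) x (px (k + (n + 1)) F ⟨k, hk⟩) = 0 := by
        rw [polar_stdS_iff]
        intro i _
        simp [px]
      exact and_congr_right fun _ => and_congr_right fun _ =>
        ⟨fun h x hx => (h x hx).trans (h3 x hx), fun h x hx => (h x hx).trans (h3 x hx).symm⟩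
    have h4 := card_ne_zero_sing (F := F) (n + 1)
    set a := Nat.card {u : Fin (n + 1) ⊕ Fin (n + 1) → F //
            u ≠ 0 ∧ Cfsg.quadFormPlus (n + 1) F u = 0} with ha
    have h5 : Nat.card {u : Fin (n + 1) ⊕ Fin (n + 1) → F //
        Cfsg.quadFormPlus (n + 1) F u = 0} - 1 = a := by omega
    rw [h2, h5] at h1
    have ha0 : 0 < a := by
      rw [ha]
      apply Nat.card_pos_iff.2
      refine ⟨⟨⟨px (n + 1) F 0, ?_, ?_⟩⟩, inferInstance⟩
      · intro h
        have := congrFun h (Sum.inl 0)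
        simp [px] at this
      · have := Q_px (F := F) (n + 1) 0
        rwa [coe_plusForm] at this
    have hq : 0 < Nat.card F := Nat.card_pos
    have h6 : Nat.card F ^ k * a ≠ 0 := by positivity
    apply Nat.eq_of_mul_eq_mul_left (Nat.pos_of_ne_zero h6)
    rw [h1, range_succ]
    have h7 : k * (k - 1) / 2 + 2 * k * (n + 1) + 2 * n = k + (k * (k - 1) / 2 + k + 2 * (k + 1) * n) := by
      ring
    calc _ = a * (Nat.card F ^ (k * (k - 1) / 2 + 2 * k * (n + 1) + 2 * n)) *
          Nat.card (Cfsg.isometryGroup F (Cfsg.quadFormPlus n F)) := by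
          rw [pow_add (Nat.card F) (k * (k - 1) / 2 + 2 * k * (n + 1))]; ring
      _ = _ := by
          rw [h7, pow_add (Nat.card F) k]; ring

/-- the number of vectors of the plus-type form with a given non-zero value -/
theorem card_value [Fintype F] (n : ℕ) (hn : 1 ≤ n) (c : F) (hc : c ≠ 0) :
    Nat.card {u : Fin n ⊕ Fin n → F // u ≠ 0 ∧ Cfsg.quadFormPlus n F u = c}
      = Nat.card F ^ (n - 1) * (Nat.card F ^ n - 1) := by
  classical
  have h1 := Cfsg.Agent.LieClassical.QuadCount.card_plus (F := F) n c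
  rw [if_neg hc, add_zero, ← Nat.card_eq_fintype_card] at h1
  have h2 : Nat.card {u : Fin n ⊕ Fin n → F // u ≠ 0 ∧ Cfsg.quadFormPlus n F u = c}
      = Nat.card {u : Fin n ⊕ Fin n → F // Cfsg.quadFormPlus n F u = c} := by
    apply Nat.card_congr
    refine Equiv.subtypeEquivRight fun w => ?_
    refine and_iff_right_of_imp fun h => ?_
    rintro rfl
    apply hc
    rw [← h, quadFormPlus_apply]
    simp
  rw [h2]
  have hq : 0 < Nat.card F := Nat.card_pos
  obtain ⟨n, rfl⟩ : ∃ k, n = k + 1 := ⟨n - 1, by omega⟩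
  apply Nat.eq_of_mul_eq_mul_left hq
  have h3 : 1 ≤ Nat.card F ^ (n + 1) := Nat.one_le_pow _ _ hq
  obtain ⟨y, hy⟩ : ∃ y, Nat.card F ^ (n + 1) = y + 1 := ⟨_, (Nat.sub_add_cancel h3).symm⟩
  have h4 : Nat.card F * (Nat.card F ^ n * y) = (y + 1) * y := by
    rw [← hy, pow_succ]; ring
  have h5 : Nat.card F ^ (2 * (n + 1)) = (y + 1) * (y + 1) := by
    rw [← hy, two_mul, pow_add]
  rw [Nat.add_sub_cancel, hy, Nat.add_sub_cancel, h4]
  rw [h5, hy] at h1
  linarith [h1]

theorem Q_add (Q : QuadraticForm F (ι → F)) (x y : ι → F) : Q (x + y) = Q x + Q y + polar Q x y := by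
  rw [polar]; ring

theorem Q_smul (Q : QuadraticForm F (ι → F)) (c : F) (x : ι → F) : Q (c • x) = c * c * Q x :=
  QuadraticMap.map_smul Q c x

theorem exists_iso_map (Q : QuadraticForm F (ι → F)) (hQ : (polarBilin Q).Nondegenerate)
    (M M' : Submodule F (ι → F)) (hM : ∀ x ∈ M, Q x = 0) (hM' : ∀ x ∈ M', Q x = 0)
    (hd : finrank F M = finrank F M') :
    ∃ g : Cfsg.isometryGroup F (⇑Q), M.map (actEquiv g : (ι → F) →ₗ[F] (ι → F)) = M' := by
  let φ : M ≃ₗ[F] M' := LinearEquiv.ofFinrankEq M M' hd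
  obtain ⟨e, he, heφ⟩ := Cfsg.Agent.ClassicalGeometry.WittQuad.extend Q hQ M M' φ
    (fun x => by rw [hM _ x.2, hM' _ (φ x).2])
  obtain ⟨g, hg⟩ := exists_iso (⇑Q) e he
  refine ⟨g, ?_⟩
  ext y
  rw [Submodule.mem_map]
  constructor
  · rintro ⟨x, hx, rfl⟩
    rw [LinearEquiv.coe_coe, actEquiv_apply, hg, heφ ⟨x, hx⟩]
    exact (φ _).2
  · intro hy
    refine ⟨φ.symm ⟨y, hy⟩, (φ.symm _).2, ?_⟩
    rw [LinearEquiv.coe_coe, actEquiv_apply, hg, heφ, LinearEquiv.apply_symm_apply]

/-- **The pointwise stabiliser of a totally singular `k`-space of the plus-type form.** -/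
theorem card_fixing_singular [Fintype F] (k m n : ℕ) (hm : m = k + n)
    (M : Submodule F (Fin m ⊕ Fin m → F)) (hM : ∀ x ∈ M, plusForm m F x = 0)
    (hd : finrank F M = k) :
    Nat.card (fixing (⇑(plusForm m F)) M)
      = Nat.card F ^ (k * (k - 1) / 2 + 2 * k * n) *
        Nat.card (Cfsg.isometryGroup F (Cfsg.quadFormPlus n F)) := by
  obtain ⟨g, hg⟩ := exists_iso_map (plusForm m F) (plus_nondegenerate m F) M (stdS m k F) hM
    (fun x hx => stdS_singular hx) (by rw [hd, finrank_stdS (by omega)])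
  rw [← card_fixing_std k m n hm, ← hg, card_fixing_map]

/-- the number of non-singular extensions of a totally singular space -/
theorem card_ext_singular [Fintype F] (k m n : ℕ) (hm : m = k + n) (hn : 1 ≤ n)
    (M : Submodule F (Fin m ⊕ Fin m → F)) (hM : ∀ x ∈ M, plusForm m F x = 0)
    (hd : finrank F M = k) (c : F) (hc : c ≠ 0) :
    Nat.card {w : Fin m ⊕ Fin m → F // w ∉ M ∧ plusForm m F w = c ∧
        ∀ x ∈ M, polar (plusForm m F) x w = 0}
      = Nat.card F ^ k * (Nat.card F ^ (n - 1) * (Nat.card F ^ n - 1)) := by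
  obtain ⟨g, hg⟩ := exists_iso_map (plusForm m F) (plus_nondegenerate m F) M (stdS m k F) hM
    (fun x hx => stdS_singular hx) (by rw [hd, finrank_stdS (by omega)])
  subst hm
  rw [← card_value n hn c hc, ← card_ext]
  refine Nat.card_congr (Equiv.subtypeEquiv (actEquiv g).toEquiv fun w => ?_)
  have h1 : (actEquiv g).toEquiv w = act g w := rfl
  rw [h1, Q_act (Q := ⇑(plusForm (k + n) F)), ← hg]
  refine and_congr ?_ (and_congr_right fun _ => ?_)
  · rw [not_iff_not]
    constructor
    · intro hw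
      exact Submodule.mem_map_of_mem hw
    · rintro ⟨y, hy, hyw⟩
      rw [LinearEquiv.coe_coe, actEquiv_apply] at hyw
      have := congrArg (act g⁻¹) hyw
      rw [act_inv_act, act_inv_act] at this
      rwa [← this]
  · constructor
    · rintro h _ ⟨y, hy, rfl⟩
      rw [LinearEquiv.coe_coe, actEquiv_apply]
      exact (polar_act (Q := ⇑(plusForm (k + n) F)) g y w).trans (h y hy)
    · intro h x hx
      rw [← polar_act (Q := ⇑(plusForm (k + n) F)) g x w]
      exact h _ (Submodule.mem_map_of_mem hx)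

/-- the totally singular part of a totally isotropic space, in characteristic two -/
theorem exists_singular_part [Finite F] [CharP F 2] (Q : QuadraticForm F (ι → F))
    (M : Submodule F (ι → F)) (hM : ∀ x ∈ M, ∀ y ∈ M, polar Q x y = 0) (u : ι → F) (hu : u ∈ M)
    (hu0 : Q u ≠ 0) :
    ∃ M₀ : Submodule F (ι → F), (∀ x ∈ M₀, Q x = 0) ∧ M₀ ⊔ Submodule.span F {u} = M ∧
      finrank F M₀ + 1 = finrank F M ∧ u ∉ M₀ ∧ ∀ x ∈ M₀, polar Q x u = 0 := by
  let M₀ : Submodule F (ι → F) :=
    { carrier := {x | x ∈ M ∧ Q x = 0}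
      add_mem' := fun {x y} hx hy => ⟨M.add_mem hx.1 hy.1, by
        rw [Q_add, hx.2, hy.2, hM x hx.1 y hy.1, add_zero, add_zero]⟩
      zero_mem' := ⟨M.zero_mem, QuadraticMap.map_zero Q⟩
      smul_mem' := fun c x hx => ⟨M.smul_mem c hx.1, by rw [Q_smul, hx.2, mul_zero]⟩ }
  have hM₀ : ∀ x, x ∈ M₀ ↔ x ∈ M ∧ Q x = 0 := fun x => Iff.rfl
  have hsup : M₀ ⊔ Submodule.span F {u} = M := by
    apply le_antisymm
    · rw [sup_le_iff, Submodule.span_singleton_le_iff_mem]
      exact ⟨fun x hx => hx.1, hu⟩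
    · intro x hx
      obtain ⟨c, hc⟩ := Cfsg.Agent.H176.SymmCharTwo.exists_sq (Q x * (Q u)⁻¹)
      rw [Submodule.mem_sup]
      refine ⟨x + c • u, ⟨M.add_mem hx (M.smul_mem c hu), ?_⟩, c • u,
        Submodule.smul_mem _ _ (Submodule.mem_span_singleton_self u), ?_⟩
      · rw [Q_add, Q_smul, hc, polar_smul_right, hM x hx u hu, smul_zero, add_zero, mul_assoc,
          inv_mul_cancel₀ hu0, mul_one, CharTwo.add_self_eq_zero]
      · funext i
        simp only [Pi.add_apply, add_assoc, CharTwo.add_self_eq_zero, add_zero]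
  have hinf : M₀ ⊓ Submodule.span F {u} = ⊥ := by
    rw [eq_bot_iff]
    rintro x ⟨hx1, hx2⟩
    obtain ⟨c, rfl⟩ := Submodule.mem_span_singleton.1 hx2
    have h1 := hx1.2
    rw [Q_smul] at h1
    have h2 : c = 0 := by
      rcases mul_eq_zero.1 h1 with h | h
      · exact mul_self_eq_zero.1 h
      · exact absurd h hu0
    rw [h2, zero_smul]
    exact Submodule.zero_mem _
  have hu00 : u ≠ 0 := by
    rintro rfl
    exact hu0 (QuadraticMap.map_zero Q)
  refine ⟨M₀, fun x hx => hx.2, hsup, ?_, fun h => hu0 h.2, fun x hx => hM x hx.1 u hu⟩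
  have h3 := Submodule.finrank_sup_add_finrank_inf_eq M₀ (Submodule.span F {u})
  rw [hsup, hinf, finrank_bot, finrank_span_singleton hu00] at h3
  omega

/-- **The pointwise stabiliser of a totally isotropic, not totally singular `(k+1)`-space of the
plus-type form in characteristic two.** -/
theorem card_fixing_nonsingular [Fintype F] [CharP F 2] (k m n : ℕ) (hm : m = k + (n + 1))
    (M : Submodule F (Fin m ⊕ Fin m → F)) (hM : ∀ x ∈ M, ∀ y ∈ M, polar (plusForm m F) x y = 0)
    (u : Fin m ⊕ Fin m → F) (hu : u ∈ M) (hu0 : plusForm m F u ≠ 0) (hd : finrank F M = k + 1) :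
    Nat.card F ^ k * Nat.card (fixing (⇑(plusForm m F)) M)
      = 2 * Nat.card F ^ (k * (k - 1) / 2 + 2 * k * (n + 1)) *
        (Nat.card F ^ (n ^ 2) * ∏ i ∈ Finset.range n, (Nat.card F ^ (2 * (i + 1)) - 1)) := by
  obtain ⟨M₀, h1, h2, h3, h4, h5⟩ := exists_singular_part (plusForm m F) M hM u hu hu0
  have h6 := card_fixing_singular k m (n + 1) hm M₀ h1 (by omega)
  rw [card_fixing_step (plusForm m F) (plus_nondegenerate m F) M₀ u h4, h2] at h6
  have h7 : Nat.card {w : Fin m ⊕ Fin m → F // w ∉ M₀ ∧ plusForm m F w = plusForm m F u ∧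
      ∀ x ∈ M₀, polar (plusForm m F) x w = polar (plusForm m F) x u}
      = Nat.card F ^ k * (Nat.card F ^ n * (Nat.card F ^ (n + 1) - 1)) := by
    have h8 := card_ext_singular k m (n + 1) hm (by omega) M₀ h1 (by omega) _ hu0
    rw [Nat.add_sub_cancel] at h8
    rw [← h8]
    apply Nat.card_congr
    refine Equiv.subtypeEquivRight fun w => and_congr_right fun _ => and_congr_right fun _ => ?_
    exact ⟨fun h x hx => (h x hx).trans (h5 x hx), fun h x hx => (h x hx).trans (h5 x hx).symm⟩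
  have hF : Fintype.card F = Nat.card F := Nat.card_eq_fintype_card.symm
  rw [h7, Cfsg.Agent.S0287.result hF (n + 1) (by omega), Nat.add_sub_cancel] at h6
  have hq : 1 < Nat.card F := Finite.one_lt_card
  have h9 : 0 < Nat.card F ^ (n + 1) - 1 := Nat.sub_pos_of_lt (Nat.one_lt_pow (by omega) hq)
  have h10 : 0 < Nat.card F ^ n * (Nat.card F ^ (n + 1) - 1) := by positivity
  apply Nat.eq_of_mul_eq_mul_left h10
  have h11 : (n + 1) * n = n + n ^ 2 := by ring
  rw [h11, pow_add (Nat.card F) n (n ^ 2)] at h6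
  calc _ = Nat.card F ^ k * (Nat.card F ^ n * (Nat.card F ^ (n + 1) - 1)) *
          Nat.card (fixing (⇑(plusForm m F)) M) := by ring
    _ = _ := by rw [h6]; ring

end Cfsg.Agent.H196
end

-- part: H196/OmegaCent
section
/-!
# Centralisers in `Ω` of involutions of orthogonal groups in characteristic two
-/

set_option autoImplicit false
set_option linter.unusedSectionVars false

namespace Cfsg.Agent.H196

open QuadraticMap Matrix Module
open Cfsg.Agent.ClassicalGeometry.Reflection
open Cfsg.Agent.ClassicalGeometry.OrthCharTwo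
open Cfsg.Agent.ClassicalGeometry.OrthDickson
open Cfsg.Agent.H177.InvolGroup
open Cfsg.Agent.H177.InvolForms
open Cfsg.Agent.LieClassical.OrthForms

section Abstract

variable {G : Type*} [Group G]

theorem card_commuting_eq (K : Subgroup G) (x : G) :
    Nat.card {g : K // (g : G) * x = x * (g : G)}
      = Nat.card (K.subgroupOf (Subgroup.centralizer ({x} : Set G))) := by
  refine Nat.card_congr
    { toFun := fun g => ⟨⟨g.1, Subgroup.mem_centralizer_singleton_iff.2 g.2⟩, g.1.2⟩
      invFun := fun g => ⟨⟨g.1, g.2⟩, Subgroup.mem_centralizer_singleton_iff.1 g.1.2⟩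
      left_inv := fun g => rfl
      right_inv := fun g => rfl }

theorem card_commuting_full (K : Subgroup G) (x : G)
    (h : Subgroup.centralizer ({x} : Set G) ≤ K) :
    Nat.card {g : K // (g : G) * x = x * (g : G)}
      = Nat.card (Subgroup.centralizer ({x} : Set G)) := by
  rw [card_commuting_eq, Subgroup.subgroupOf_eq_top.2 h]
  exact Nat.card_congr Subgroup.topEquiv.toEquiv

theorem card_commuting_half (K : Subgroup G) [K.Normal] (hK : K.index = 2) (x : G) (r : G)
    (hr : r ∈ Subgroup.centralizer ({x} : Set G)) (hrK : r ∉ K) :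
    2 * Nat.card {g : K // (g : G) * x = x * (g : G)}
      = Nat.card (Subgroup.centralizer ({x} : Set G)) := by
  rw [card_commuting_eq, ← Subgroup.index_mul_card (K.subgroupOf (Subgroup.centralizer {x}))]
  congr 1
  have h1 : K.relIndex (Subgroup.centralizer {x}) ∣ 2 := by
    rw [← hK]
    exact Subgroup.relIndex_dvd_index_of_normal K _
  rcases (Nat.dvd_prime Nat.prime_two).1 h1 with h2 | h2
  · exact absurd (Subgroup.relIndex_eq_one.1 h2 hr) hrK
  · exact h2.symm

end Abstract

variable {ι : Type} [Fintype ι] [DecidableEq ι] {F : Type*} [Field F]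

/-- a reflection in a vector orthogonal to the residual space commutes -/
theorem refl_mem_centralizer [CharP F 2] (Q : QuadraticForm F (ι → F))
    (hQ : (polarBilin Q).Nondegenerate) (x : Cfsg.isometryGroup F (⇑Q)) (hx : x * x = 1)
    (v : ι → F) (hv : Q v ≠ 0) (hvx : ∀ y ∈ LinearMap.range (nMap x), polar Q v y = 0) :
    reflIso Q v hv ∈ Subgroup.centralizer ({x} : Set (Cfsg.isometryGroup F (⇑Q))) :=
  fixing_le_centralizer Q hQ x hx fun y hy => act_refl_of_polar Q v hv y (hvx y hy)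

theorem card_omega_half [Finite F] [CharP F 2] (Q : QuadraticForm F (ι → F))
    (hQ : (polarBilin Q).Nondegenerate)
    (h : (∃ θ : F, θ ≠ 0 ∧ θ ≠ 1) ∨ Fintype.card ι ≠ 4) (x : Cfsg.isometryGroup F (⇑Q))
    (hx : x * x = 1) (v : ι → F) (hv : Q v ≠ 0)
    (hvx : ∀ y ∈ LinearMap.range (nMap x), polar Q v y = 0) :
    2 * Nat.card {g : Cfsg.Omega F (⇑Q) //
        (g : Cfsg.isometryGroup F (⇑Q)) * x = x * (g : Cfsg.isometryGroup F (⇑Q))}
      = Nat.card (Subgroup.centralizer ({x} : Set (Cfsg.isometryGroup F (⇑Q)))) := by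
  have : Nonempty ι := by
    by_contra hne
    rw [not_nonempty_iff] at hne
    have : v = 0 := Subsingleton.elim _ _
    rw [this] at hv
    exact hv (QuadraticMap.map_zero Q)
  exact card_commuting_half _ (index_commutator_two Q CharTwo.two_eq_zero hQ h) x _
    (refl_mem_centralizer Q hQ x hx v hv hvx) (refl_notMem_commutator Q hQ h v hv)

/-- If the residual space is a maximal totally singular subspace the centraliser lies in `Ω`. -/
theorem centralizer_le_omega [Finite F] [CharP F 2] (Q : QuadraticForm F (ι → F))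
    (hQ : (polarBilin Q).Nondegenerate)
    (h : (∃ θ : F, θ ≠ 0 ∧ θ ≠ 1) ∨ Fintype.card ι ≠ 4) (x : Cfsg.isometryGroup F (⇑Q))
    (m : ℕ) (hm : Fintype.card ι = 2 * m) (hd : finrank F (LinearMap.range (nMap x)) = m)
    (hs : ∀ y ∈ LinearMap.range (nMap x), Q y = 0) :
    Subgroup.centralizer ({x} : Set (Cfsg.isometryGroup F (⇑Q))) ≤ Cfsg.Omega F (⇑Q) := by
  intro g hg
  rw [Subgroup.mem_centralizer_singleton_iff] at hg
  have h1 : Cfsg.Agent.H181.Families.img g (LinearMap.range (nMap x)) = LinearMap.range (nMap x) :=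
    map_range_of_commute Q x g hg
  have h2 := Cfsg.Agent.H181.Families.even_iff_dsign hQ hm h g (U := LinearMap.range (nMap x)) ⟨hd, hs⟩
  rw [h1, inf_idem, hd, Nat.sub_self] at h2
  exact (Cfsg.Agent.H177.OmegaSign.mem_commutator_iff_good Q hQ h g).2 (h2.1 (by decide))

end Cfsg.Agent.H196
end

-- part: H196/Assemble
section
/-!
# Orders of centralisers in `Ω⁺_2m(q)`, `q` even, of involutions, given the order of the isometry
group of the form on the residual space
-/

set_option autoImplicit false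
set_option linter.unusedSectionVars false

namespace Cfsg.Agent.H196

open QuadraticMap Matrix Module
open Cfsg.Agent.ClassicalGeometry.Reflection
open Cfsg.Agent.ClassicalGeometry.OrthCharTwo
open Cfsg.Agent.ClassicalGeometry.OrthDickson
open Cfsg.Agent.H177.InvolGroup
open Cfsg.Agent.H177.InvolForms
open Cfsg.Agent.LieClassical.OrthForms

variable {F : Type*} [Field F]

/-- the number of isometries of a bilinear form -/
noncomputable def isoCount {M : Type*} [AddCommGroup M] [Module F M] (γ : LinearMap.BilinForm F M) :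
    ℕ :=
  Nat.card {φ : M ≃ₗ[F] M // ∀ x y, γ (φ x) (φ y) = γ x y}

theorem rank_eq {m : ℕ} {Q : (Fin m ⊕ Fin m → F) → F} (x : Cfsg.isometryGroup F Q) :
    (((x : Matrix.GeneralLinearGroup (Fin m ⊕ Fin m) F) :
      Matrix (Fin m ⊕ Fin m) (Fin m ⊕ Fin m) F) - 1).rank = finrank F (LinearMap.range (nMap x)) := by
  have h : (((x : Matrix.GeneralLinearGroup (Fin m ⊕ Fin m) F) :
      Matrix (Fin m ⊕ Fin m) (Fin m ⊕ Fin m) F) - 1).mulVecLin = nMap x := by
    apply LinearMap.ext
    intro v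
    rw [Matrix.mulVecLin_apply, Matrix.sub_mulVec, Matrix.one_mulVec]
    rfl
  rw [Matrix.rank, h]

theorem good_of [Fintype F] {m : ℕ} (h : Fintype.card F ≠ 2 ∨ m ≠ 2) :
    (∃ θ : F, θ ≠ 0 ∧ θ ≠ 1) ∨ Fintype.card (Fin m ⊕ Fin m) ≠ 4 := by
  rcases h with h | h
  · exact Or.inl (exists_ne_zero_ne_one h)
  · right
    rw [Fintype.card_sum, Fintype.card_fin]
    omega

theorem nMap_mem_polar [CharP F 2] {m : ℕ} (x : Cfsg.isometryGroup F (⇑(plusForm m F)))
    (hx : x * x = 1) : ∀ a ∈ LinearMap.range (nMap x), ∀ b ∈ LinearMap.range (nMap x),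
      polar (plusForm m F) a b = 0 := by
  rintro _ ⟨a, rfl⟩ _ ⟨b, rfl⟩
  exact Cfsg.Agent.H177.InvolOrth.polar_N_N (plusForm m F) (nMap x)
    (nMap_nMap _ x hx) (Q_add_nMap _ x) a b

/-- the form on the residual space -/
theorem exists_gamma [CharP F 2] {m : ℕ} (x : Cfsg.isometryGroup F (⇑(plusForm m F)))
    (hx : x * x = 1) : ∃ γ : LinearMap.BilinForm F (LinearMap.range (nMap x)),
      γ.Nondegenerate ∧ (∀ (v : Fin m ⊕ Fin m → F) (y : LinearMap.range (nMap x)),
        γ ⟨nMap x v, LinearMap.mem_range_self (nMap x) v⟩ y = polarBilin (plusForm m F) v y) ∧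
      γ.IsSymm ∧ ∀ y : LinearMap.range (nMap x), γ y y = plusForm m F y :=
  Cfsg.Agent.H177.InvolOrth.exists_gamma (plusForm m F) (nMap x) (nMap_nMap _ x hx)
    (Q_add_nMap _ x) (plus_nondegenerate m F)

/-- **Totally singular residual space.** -/
theorem card_omega_alt [Fintype F] [CharP F 2] {m s n : ℕ} (hm : m = s + n)
    (h : Fintype.card F ≠ 2 ∨ m ≠ 2) (x : Cfsg.isometryGroup F (⇑(plusForm m F))) (hx : x * x = 1)
    (hs : finrank F (LinearMap.range (nMap x)) = s)
    (hsing : ∀ y ∈ LinearMap.range (nMap x), plusForm m F y = 0) (a : ℕ)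
    (ha : ∀ γ : LinearMap.BilinForm F (LinearMap.range (nMap x)), γ.Nondegenerate → γ.IsAlt →
      isoCount γ = a) :
    Nat.card {g : Cfsg.Omega F (⇑(plusForm m F)) //
        (g : Cfsg.isometryGroup F (⇑(plusForm m F))) * x
          = x * (g : Cfsg.isometryGroup F (⇑(plusForm m F)))}
      = a * (Nat.card F ^ (s * (s - 1) / 2 + 2 * s * n) * (if n = 0 then 1 else
          Nat.card F ^ (n * (n - 1)) * (Nat.card F ^ n - 1) *
            ∏ i ∈ Finset.range (n - 1), (Nat.card F ^ (2 * (i + 1)) - 1))) := by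
  have hQ := plus_nondegenerate m F
  obtain ⟨γ, hγ, h1, hS, h2⟩ := exists_gamma x hx
  have hA : γ.IsAlt := fun y => by rw [h2]; exact hsing y y.2
  have h3 := card_centralizer (plusForm m F) hQ x hx γ hγ h1 h2
  have h4 : Nat.card {φ : LinearMap.range (nMap x) ≃ₗ[F] LinearMap.range (nMap x) //
          ∀ x y, γ (φ x) (φ y) = γ x y} = a := ha γ hγ hA
  rw [h4, card_fixing_singular s m n hm _ hsing hs] at h3
  by_cases hn : n = 0
  · subst hn
    rw [card_commuting_full _ x (centralizer_le_omega _ hQ (good_of h) x m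
      (by rw [Fintype.card_sum, Fintype.card_fin]; omega) (by rw [hs]; omega) hsing), h3,
      Cfsg.Agent.S0287.card_zero, if_pos rfl]
  · rw [if_neg hn]
    have hF : Fintype.card F = Nat.card F := Nat.card_eq_fintype_card.symm
    -- a non-singular vector orthogonal to the residual space
    obtain ⟨v, hv, hvx⟩ : ∃ v, plusForm m F v ≠ 0 ∧
        ∀ y ∈ LinearMap.range (nMap x), polar (plusForm m F) v y = 0 := by
      have h5 := card_ext_singular s m n hm (by omega) _ hsing hs (1 : F) one_ne_zero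
      have hq : 1 < Nat.card F := Finite.one_lt_card
      have h6 : 0 < Nat.card F ^ n - 1 := Nat.sub_pos_of_lt (Nat.one_lt_pow hn hq)
      have h7 : 0 < Nat.card F ^ s * (Nat.card F ^ (n - 1) * (Nat.card F ^ n - 1)) := by
        positivity
      rw [← h5, Nat.card_pos_iff] at h7
      obtain ⟨⟨v, hv1, hv2, hv3⟩⟩ := h7.1
      exact ⟨v, by rw [hv2]; exact one_ne_zero, fun y hy => by rw [polar_comm]; exact hv3 y hy⟩
    have h5 := card_omega_half (plusForm m F) hQ (good_of h) x hx v hv hvx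
    rw [h3, Cfsg.Agent.S0287.result hF n (by omega)] at h5
    apply Nat.eq_of_mul_eq_mul_left (Nat.succ_pos 1)
    rw [h5]
    ring

/-- **Residual space not totally singular.** -/
theorem card_omega_nonalt [Fintype F] [CharP F 2] {m k n : ℕ} (hm : m = k + (n + 1))
    (h : Fintype.card F ≠ 2 ∨ m ≠ 2) (x : Cfsg.isometryGroup F (⇑(plusForm m F))) (hx : x * x = 1)
    (hs : finrank F (LinearMap.range (nMap x)) = k + 1) (u : Fin m ⊕ Fin m → F)
    (hu : u ∈ LinearMap.range (nMap x)) (hu0 : plusForm m F u ≠ 0) (a : ℕ)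
    (ha : ∀ γ : LinearMap.BilinForm F (LinearMap.range (nMap x)), γ.Nondegenerate → γ.IsSymm →
      (∃ y, γ y y ≠ 0) → isoCount γ = a) :
    Nat.card F ^ k * Nat.card {g : Cfsg.Omega F (⇑(plusForm m F)) //
        (g : Cfsg.isometryGroup F (⇑(plusForm m F))) * x
          = x * (g : Cfsg.isometryGroup F (⇑(plusForm m F)))}
      = a * (Nat.card F ^ (k * (k - 1) / 2 + 2 * k * (n + 1)) *
        (Nat.card F ^ (n ^ 2) * ∏ i ∈ Finset.range n, (Nat.card F ^ (2 * (i + 1)) - 1))) := by
  have hQ := plus_nondegenerate m F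
  have hpol := nMap_mem_polar x hx
  obtain ⟨γ, hγ, h1, hS, h2⟩ := exists_gamma x hx
  have h3 := card_centralizer (plusForm m F) hQ x hx γ hγ h1 h2
  have h4 : Nat.card {φ : LinearMap.range (nMap x) ≃ₗ[F] LinearMap.range (nMap x) //
          ∀ x y, γ (φ x) (φ y) = γ x y} = a := ha γ hγ hS ⟨⟨u, hu⟩, by rw [h2]; exact hu0⟩
  have h5 := card_fixing_nonsingular k m n hm _ hpol u hu hu0 hs
  have h6 := card_omega_half (plusForm m F) hQ (good_of h) x hx u hu0 (fun y hy => hpol u hu y hy)
  rw [h3, h4] at h6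
  apply Nat.eq_of_mul_eq_mul_left (Nat.succ_pos 1)
  calc _ = Nat.card F ^ k * (2 * Nat.card {g : Cfsg.Omega F (⇑(plusForm m F)) //
        (g : Cfsg.isometryGroup F (⇑(plusForm m F))) * x
          = x * (g : Cfsg.isometryGroup F (⇑(plusForm m F)))}) := by ring
    _ = a * (Nat.card F ^ k * Nat.card (fixing (⇑(plusForm m F)) (LinearMap.range (nMap x)))) := by
        rw [h6]; ring
    _ = _ := by rw [h5]; ring

end Cfsg.Agent.H196
end

-- part: H196/Final
section
/-!
# Orders of centralisers in `Ω⁺_2m(q)`, `q` even, of involutions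
-/

set_option autoImplicit false
set_option linter.unusedSectionVars false

namespace Cfsg.Agent.H196.Final

open QuadraticMap Matrix Module
open Cfsg.Agent.ClassicalGeometry.Reflection
open Cfsg.Agent.ClassicalGeometry.OrthCharTwo
open Cfsg.Agent.ClassicalGeometry.OrthDickson
open Cfsg.Agent.H177.InvolGroup
open Cfsg.Agent.H177.InvolForms
open Cfsg.Agent.LieClassical.OrthForms
open Cfsg.Agent.H196.SymForm

variable {F : Type*} [Field F]

theorem cSp_fin (q r : ℕ) :
    (q : ℕ) ^ (r ^ 2) * ∏ i : Fin r, (q ^ (2 * ((i : ℕ) + 1)) - 1) = cSp q r := by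
  rw [cSp, Finset.prod_range]

theorem mulVec_eq {m : ℕ} {Q : (Fin m ⊕ Fin m → F) → F} (x : Cfsg.isometryGroup F Q)
    (v : Fin m ⊕ Fin m → F) :
    (((x : Matrix.GeneralLinearGroup (Fin m ⊕ Fin m) F) :
      Matrix (Fin m ⊕ Fin m) (Fin m ⊕ Fin m) F) - 1).mulVec v = nMap x v := by
  rw [Matrix.sub_mulVec, Matrix.one_mulVec]
  rfl

theorem two_mul_rank_le [CharP F 2] {m : ℕ} (x : Cfsg.isometryGroup F (⇑(plusForm m F)))
    (hx : x * x = 1) : finrank F (LinearMap.range (nMap x)) ≤ m := by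
  have h := Cfsg.Agent.H177.InvolCount.two_mul_finrank_res_le (plusForm m F) x hx
  rw [← range_nMap, Fintype.card_sum, Fintype.card_fin] at h
  omega

theorem range_add (t n : ℕ) :
    2 * (2 * t + n) * (2 * t) - (3 * (2 * t) ^ 2 + 2 * t) / 2
      = 2 * t * (2 * t - 1) / 2 + 2 * (2 * t) * n := by
  have h1 : (3 * (2 * t) ^ 2 + 2 * t) / 2 = 6 * t ^ 2 + t := by
    have : 3 * (2 * t) ^ 2 + 2 * t = 2 * (6 * t ^ 2 + t) := by ring
    omega
  have h2 : 2 * t * (2 * t - 1) / 2 = t * (2 * t - 1) := by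
    rw [mul_assoc, Nat.mul_div_cancel_left _ (by norm_num)]
  rw [h1, h2]
  rcases t with _ | t
  · simp
  · have h3 : 2 * (t + 1) - 1 = 2 * t + 1 := by omega
    rw [h3]
    have h4 : 2 * (2 * (t + 1) + n) * (2 * (t + 1))
        = (6 * (t + 1) ^ 2 + (t + 1)) + ((t + 1) * (2 * t + 1) + 2 * (2 * (t + 1)) * n) := by ring
    omega

/-- totally singular residual space -/
theorem alt [Fintype F] [CharP F 2] {q : ℕ} (hF : Fintype.card F = q) {m s : ℕ}
    (h : Fintype.card F ≠ 2 ∨ m ≠ 2) (x : ↥(Cfsg.isometryGroup F (⇑(plusForm m F))))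
    (hx : x ^ 2 = 1)
    (hs : (((x : Matrix.GeneralLinearGroup (Fin m ⊕ Fin m) F) :
      Matrix (Fin m ⊕ Fin m) (Fin m ⊕ Fin m) F) - 1).rank = s) (heven : Even s)
    (halt : ∀ v : Fin m ⊕ Fin m → F, (⇑(plusForm m F))
      ((((x : Matrix.GeneralLinearGroup (Fin m ⊕ Fin m) F) :
        Matrix (Fin m ⊕ Fin m) (Fin m ⊕ Fin m) F) - 1).mulVec v) = 0) :
    Nat.card {g : ↥(Cfsg.Omega F (⇑(plusForm m F))) //
      (g : ↥(Cfsg.isometryGroup F (⇑(plusForm m F)))) * x
        = x * (g : ↥(Cfsg.isometryGroup F (⇑(plusForm m F))))}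
    = q ^ (2 * m * s - (3 * s ^ 2 + s) / 2) *
      ((q : ℕ) ^ ((s / 2) ^ 2) * ∏ i : Fin (s / 2), (q ^ (2 * ((i : ℕ) + 1)) - 1)) *
      (if s = m then 1 else q ^ ((m - s) * (m - s - 1)) * (q ^ (m - s) - 1) *
        ∏ i : Fin (m - s - 1), (q ^ (2 * ((i : ℕ) + 1)) - 1)) := by
  rw [pow_two] at hx
  rw [rank_eq] at hs
  have hle := two_mul_rank_le x hx
  obtain ⟨n, hm⟩ : ∃ n, m = s + n := ⟨m - s, by omega⟩
  obtain ⟨t, ht⟩ := heven
  have ht' : s = 2 * t := by omega
  have hsing : ∀ y ∈ LinearMap.range (nMap x), plusForm m F y = 0 := by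
    rintro _ ⟨v, rfl⟩
    rw [← mulVec_eq]
    exact halt v
  have h1 := card_omega_alt hm h x hx hs hsing (cSp (Fintype.card F) t)
    (fun γ hγ hA => card_iso_alt γ hA hγ (by rw [hs, ht']))
  have hqF : Nat.card F = q := by rw [Nat.card_eq_fintype_card, hF]
  rw [hqF, hF] at h1
  rw [h1, cSp_fin, ← Finset.prod_range (fun i => q ^ (2 * (i + 1)) - 1)]
  subst ht' hm
  have h2 : 2 * t / 2 = t := by omega
  have h3 : 2 * t + n - 2 * t = n := by omega
  rw [h2, h3, range_add]
  have h4 : (2 * t = 2 * t + n) ↔ n = 0 := by omega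
  simp only [h4]
  ring

theorem exp_nonalt (k n : ℕ) :
    k * (k - 1) / 2 + 2 * k * (n + 1) = 2 * (k + 1 + n) * k - (3 * (k + 1) ^ 2 - 5 * (k + 1)) / 2 - 1 := by
  rcases k with _ | k
  · simp
  have h0 : (k + 1) * (k + 1 - 1) = k * (k + 1) := by
    rw [Nat.add_sub_cancel, mul_comm]
  have h1 : 3 * (k + 1 + 1) ^ 2 - 5 * (k + 1 + 1) = 2 * (k ^ 2 + 3 * k + 1) + k * (k + 1) := by
    have : 3 * (k + 1 + 1) ^ 2 = 5 * (k + 1 + 1) + (2 * (k ^ 2 + 3 * k + 1) + k * (k + 1)) := by ring
    omega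
  obtain ⟨j, hj⟩ : ∃ j, k * (k + 1) = 2 * j := by
    obtain ⟨j, hj⟩ := Nat.even_mul_succ_self k
    exact ⟨j, by omega⟩
  rw [h0, h1, hj]
  have h2 : 2 * j / 2 = j := by omega
  have h3 : (2 * (k ^ 2 + 3 * k + 1) + 2 * j) / 2 = k ^ 2 + 3 * k + 1 + j := by omega
  rw [h2, h3]
  have h4 : 2 * (k + 1 + 1 + n) * (k + 1)
      = (k ^ 2 + 3 * k + 1 + j) + 1 + (j + 2 * (k + 1) * (n + 1)) := by
    have : 2 * (k + 1 + 1 + n) * (k + 1) = (k ^ 2 + 3 * k + 1) + 1 + 2 * (k + 1) * (n + 1) + k * (k + 1) := by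
      ring
    omega
  omega

/-- residual space not totally singular, in general -/
theorem nonalt [Fintype F] [CharP F 2] {q : ℕ} (hF : Fintype.card F = q) {m k : ℕ}
    (h : Fintype.card F ≠ 2 ∨ m ≠ 2) (x : ↥(Cfsg.isometryGroup F (⇑(plusForm m F))))
    (hx : x * x = 1) (hs : finrank F (LinearMap.range (nMap x)) = k + 1)
    (hna : ∃ y ∈ LinearMap.range (nMap x), plusForm m F y ≠ 0) :
    q ^ k * Nat.card {g : ↥(Cfsg.Omega F (⇑(plusForm m F))) //
      (g : ↥(Cfsg.isometryGroup F (⇑(plusForm m F)))) * x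
        = x * (g : ↥(Cfsg.isometryGroup F (⇑(plusForm m F))))}
    = cON q (k + 1) * (q ^ (2 * m * k - (3 * (k + 1) ^ 2 - 5 * (k + 1)) / 2 - 1)
      * cSp q (m - (k + 1))) := by
  have hle := two_mul_rank_le x hx
  obtain ⟨n, hm⟩ : ∃ n, m = k + (n + 1) := ⟨m - (k + 1), by omega⟩
  obtain ⟨u, hu, hu0⟩ := hna
  have h1 := card_omega_nonalt hm h x hx hs u hu hu0 (cON (Fintype.card F) (k + 1))
    (fun γ hγ hS hna => card_iso_nonalt γ hS hγ hna hs)
  have hqF : Nat.card F = q := by rw [Nat.card_eq_fintype_card, hF]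
  rw [hqF, hF] at h1
  rw [h1]
  subst hm
  have h2 : k + (n + 1) - (k + 1) = n := by omega
  have h3 : k + (n + 1) = k + 1 + n := by ring
  rw [h2, exp_nonalt, ← h3]
  rfl

theorem exists_of_ne [CharP F 2] {m : ℕ} (x : ↥(Cfsg.isometryGroup F (⇑(plusForm m F))))
    (hna : ∃ v : Fin m ⊕ Fin m → F, (⇑(plusForm m F))
      ((((x : Matrix.GeneralLinearGroup (Fin m ⊕ Fin m) F) :
        Matrix (Fin m ⊕ Fin m) (Fin m ⊕ Fin m) F) - 1).mulVec v) ≠ 0) :
    ∃ y ∈ LinearMap.range (nMap x), plusForm m F y ≠ 0 := by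
  obtain ⟨v, hv⟩ := hna
  rw [mulVec_eq] at hv
  exact ⟨_, ⟨v, rfl⟩, hv⟩

/-- even rank, residual space not totally singular -/
theorem nonalt_even [Fintype F] [CharP F 2] {q : ℕ} (hF : Fintype.card F = q) {m s : ℕ}
    (h : Fintype.card F ≠ 2 ∨ m ≠ 2) (x : ↥(Cfsg.isometryGroup F (⇑(plusForm m F))))
    (hx : x ^ 2 = 1)
    (hs : (((x : Matrix.GeneralLinearGroup (Fin m ⊕ Fin m) F) :
      Matrix (Fin m ⊕ Fin m) (Fin m ⊕ Fin m) F) - 1).rank = s) (heven : Even s)
    (hna : ∃ v : Fin m ⊕ Fin m → F, (⇑(plusForm m F))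
      ((((x : Matrix.GeneralLinearGroup (Fin m ⊕ Fin m) F) :
        Matrix (Fin m ⊕ Fin m) (Fin m ⊕ Fin m) F) - 1).mulVec v) ≠ 0) :
    Nat.card {g : ↥(Cfsg.Omega F (⇑(plusForm m F))) //
      (g : ↥(Cfsg.isometryGroup F (⇑(plusForm m F)))) * x
        = x * (g : ↥(Cfsg.isometryGroup F (⇑(plusForm m F))))}
    = q ^ (2 * m * (s - 1) - (3 * s ^ 2 - 5 * s) / 2 - 1) *
      ((q : ℕ) ^ (((s - 2) / 2) ^ 2) * ∏ i : Fin ((s - 2) / 2), (q ^ (2 * ((i : ℕ) + 1)) - 1)) *
      ((q : ℕ) ^ ((m - s) ^ 2) * ∏ i : Fin (m - s), (q ^ (2 * ((i : ℕ) + 1)) - 1)) := by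
  rw [pow_two] at hx
  rw [rank_eq] at hs
  obtain ⟨y, hy, hy0⟩ := exists_of_ne x hna
  have hpos : 0 < finrank F (LinearMap.range (nMap x)) := by
    rw [Module.finrank_pos_iff_exists_ne_zero]
    refine ⟨⟨y, hy⟩, fun h0 => hy0 ?_⟩
    have : y = 0 := congrArg Subtype.val h0
    rw [this]
    exact QuadraticMap.map_zero _
  obtain ⟨t, ht⟩ := heven
  obtain ⟨t, rfl⟩ : ∃ j, t = j + 1 := ⟨t - 1, by omega⟩
  have hs' : s = (2 * t + 1) + 1 := by omega
  subst hs'
  have h1 := nonalt hF h x hx hs ⟨y, hy, hy0⟩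
  have hq : 0 < q := by rw [← hF]; exact Fintype.card_pos
  rw [cSp_fin, cSp_fin]
  have h2 : (2 * t + 1 + 1 - 2) / 2 = t := by omega
  have h3 : 2 * t + 1 + 1 - 1 = 2 * t + 1 := by omega
  rw [h2, h3]
  have h4 : 0 < q ^ (2 * t + 1) := by positivity
  apply Nat.eq_of_mul_eq_mul_left h4
  rw [h1, cON_even]
  ring

theorem exp_odd (t m : ℕ) (hm : 2 * t + 1 ≤ m) :
    2 * m * (2 * t) - (3 * (2 * t + 1) ^ 2 - 5 * (2 * t + 1)) / 2 - 1
      = 2 * t + (2 * m * (2 * t) - (3 * (2 * t + 1) ^ 2 - 3 * (2 * t + 1)) / 2) := by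
  obtain ⟨n, rfl⟩ : ∃ n, m = 2 * t + 1 + n := ⟨m - (2 * t + 1), by omega⟩
  rcases t with _ | t
  · simp
  have h1 : 3 * (2 * (t + 1) + 1) ^ 2 - 5 * (2 * (t + 1) + 1) = 2 * (6 * t ^ 2 + 13 * t + 6) := by
    have : 3 * (2 * (t + 1) + 1) ^ 2 = 5 * (2 * (t + 1) + 1) + 2 * (6 * t ^ 2 + 13 * t + 6) := by ring
    omega
  have h2 : 3 * (2 * (t + 1) + 1) ^ 2 - 3 * (2 * (t + 1) + 1) = 2 * (6 * t ^ 2 + 15 * t + 9) := by
    have : 3 * (2 * (t + 1) + 1) ^ 2 = 3 * (2 * (t + 1) + 1) + 2 * (6 * t ^ 2 + 15 * t + 9) := by ring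
    omega
  rw [h1, h2, Nat.mul_div_cancel_left _ (by norm_num), Nat.mul_div_cancel_left _ (by norm_num)]
  have h3 : 2 * (2 * (t + 1) + 1 + n) * (2 * (t + 1))
      = (6 * t ^ 2 + 15 * t + 9) + (2 * t ^ 2 + 5 * t + 3 + 4 * n * (t + 1)) := by ring
  omega

/-- odd rank -/
theorem nonalt_odd [Fintype F] [CharP F 2] {q : ℕ} (hF : Fintype.card F = q) {m s : ℕ}
    (h : Fintype.card F ≠ 2 ∨ m ≠ 2) (x : ↥(Cfsg.isometryGroup F (⇑(plusForm m F))))
    (hx : x ^ 2 = 1)
    (hs : (((x : Matrix.GeneralLinearGroup (Fin m ⊕ Fin m) F) :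
      Matrix (Fin m ⊕ Fin m) (Fin m ⊕ Fin m) F) - 1).rank = s) (hodd : Odd s) :
    Nat.card {g : ↥(Cfsg.Omega F (⇑(plusForm m F))) //
      (g : ↥(Cfsg.isometryGroup F (⇑(plusForm m F)))) * x
        = x * (g : ↥(Cfsg.isometryGroup F (⇑(plusForm m F))))}
    = q ^ (2 * m * (s - 1) - (3 * s ^ 2 - 3 * s) / 2) *
      ((q : ℕ) ^ (((s - 1) / 2) ^ 2) * ∏ i : Fin ((s - 1) / 2), (q ^ (2 * ((i : ℕ) + 1)) - 1)) *
      ((q : ℕ) ^ ((m - s) ^ 2) * ∏ i : Fin (m - s), (q ^ (2 * ((i : ℕ) + 1)) - 1)) := by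
  rw [pow_two] at hx
  rw [rank_eq] at hs
  have hle := two_mul_rank_le x hx
  obtain ⟨t, rfl⟩ := hodd
  have hna : ∃ y ∈ LinearMap.range (nMap x), plusForm m F y ≠ 0 := by
    by_contra hcon
    push Not at hcon
    have h1 := Cfsg.Agent.H177.InvolCount.even_of_alt (plusForm m F) (plus_nondegenerate m F) x hx
      (fun v hv => hcon v (by rw [range_nMap]; exact hv))
    rw [← range_nMap, hs] at h1
    exact (Nat.not_even_iff_odd.2 ⟨t, rfl⟩) h1
  have h1 := nonalt hF h x hx hs hna
  have hq : 0 < q := by rw [← hF]; exact Fintype.card_pos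
  rw [cSp_fin, cSp_fin]
  have h2 : (2 * t + 1 - 1) / 2 = t := by omega
  have h3 : 2 * t + 1 - 1 = 2 * t := by omega
  rw [h2, h3]
  have h4 : 0 < q ^ (2 * t) := by positivity
  apply Nat.eq_of_mul_eq_mul_left h4
  rw [h1, cON_odd, exp_odd t m (by omega), pow_add]
  ring

end Cfsg.Agent.H196.Final
end
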